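import Cfsg.Agent.Bimonster54.Data.T3.Sheet

/-!
Certificate data for the table `T3`: the label tables.
-/

set_option autoImplicit false
set_option maxRecDepth 40000
set_option maxHeartbeats 0
set_option Elab.async false

namespace CfsgLib.Bimonster54.T3

theorem tab0_ok : tablesOK pal mt0 it = true := by decide +kernel

theorem tab1_ok : tablesOK pal mt1 it = true := by decide +kernel

theorem tab2_ok : tablesOK pal mt2 it = true := by decide +kernel

theorem tab3_ok : tablesOK pal mt3 it = true := by decide +kernel

theorem tab4_ok : tablesOK pal mt4 it = true := by decide +kernel

theorem tab5_ok : tablesOK pal mt5 it = true := by decide +kernel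

theorem tab6_ok : tablesOK pal mt6 it = true := by decide +kernel

theorem tab7_ok : tablesOK pal mt7 it = true := by decide +kernel

end CfsgLib.Bimonster54.T3
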