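import Cfsg.Agent.Bimonster54.Data.T3.Sheet

/-!
Certificate data for the table `T3`: the label tables.
-/

set_option autoImplicit false
set_option maxRecDepth 40000
set_option maxHeartbeats 0
set_option Elab.async false

namespace CfsgLib.Bimonster54.T3

theorem tab8_ok : tablesOK pal mt8 it = true := by decide +kernel

theorem tab9_ok : tablesOK pal mt9 it = true := by decide +kernel

theorem tab10_ok : tablesOK pal mt10 it = true := by decide +kernel

theorem tab11_ok : tablesOK pal mt11 it = true := by decide +kernel

theorem tab12_ok : tablesOK pal mt12 it = true := by decide +kernel

theorem tab13_ok : tablesOK pal mt13 it = true := by decide +kernel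

theorem tab14_ok : tablesOK pal mt14 it = true := by decide +kernel

theorem tab15_ok : tablesOK pal mt15 it = true := by decide +kernel

end CfsgLib.Bimonster54.T3
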